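import Mathlib
import Cfsg.Agent.H969.SpStep
import Cfsg.Agent.S0765

/-!
# Subgroups of 2-power index of `Sp_{2m}(2)` (helper387, S3608)

`good_succ_two` : `Good 2 (Sp_{2n}(2))` implies `Good 2 (Sp_{2n+2}(2))` for `n ≥ 2`.
-/

set_option autoImplicit false
open Cfsg
open scoped Matrix
open Cfsg.Agent.ClassicalGeometry.SympBasic Cfsg.Agent.ClassicalGeometry.SympSiegel
open Cfsg.Agent.H408.Core Cfsg.Agent.H969.SpStep Cfsg.Agent.H62.SpEmb

namespace Cfsg.Agent.H387.SpTwoStep

variable {F : Type*} [Field F] {n : ℕ}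

local notation "V₁" => (Fin (n + 1) ⊕ Fin (n + 1) → F)
local notation "V₀" => (Fin n ⊕ Fin n → F)
local notation "G₁" => Matrix.symplecticGroup (Fin (n + 1)) F
local notation "G₀" => Matrix.symplecticGroup (Fin n) F
local notation "f₁" => sympForm (n + 1) F
local notation "f₀" => sympForm n F

theorem res_perp (x : V₀) (c : F) (A : G₀) {v : V₁} (hv : f₁ (e F n) v = 0) :
    res ((sg x c * emb A) • v) = A • res v := by
  rw [form_e] at hv
  rw [mul_smul, emb_smul]
  unfold sg
  rw [siegel_smul (form_e_ext x)]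
  have h1 : f₁ (e F n) (v + ext (A • res v - res v)) = 0 := by
    rw [sympForm_add_right, form_e_ext, form_e, hv, add_zero]
  rw [h1]
  simp only [zero_smul, add_zero, res_add, res_smul, res_e, smul_zero, res_ext]
  abel

/-- the projection of the stabiliser of `e` -/
theorem exists_pi : ∃ π : MulAction.stabilizer G₁ (e F n) →* G₀,
    ∀ (x : V₀) (c : F) (A : G₀) (g : MulAction.stabilizer G₁ (e F n)), (g : G₁) = sg x c * emb A → π g = A := by
  have h1 : ∀ g : MulAction.stabilizer G₁ (e F n), ∃ A : G₀, ∃ (x : V₀) (c : F), (g : G₁) = sg x c * emb A := by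
    intro g
    obtain ⟨x, c, A, h⟩ := exists_stab (g := (g : G₁)) g.2
    exact ⟨A, x, c, h⟩
  choose P hP using h1
  have h2 : ∀ (g : MulAction.stabilizer G₁ (e F n)) (y : V₀), P g • y = res ((g : G₁) • ext y) := by
    intro g y
    obtain ⟨x, c, h⟩ := hP g
    rw [h, res_perp x c (P g) (form_e_ext y), res_ext]
  have h3 : ∀ (g : MulAction.stabilizer G₁ (e F n)) {v : V₁}, f₁ (e F n) v = 0 →
      res ((g : G₁) • v) = P g • res v := by
    intro g v hv
    obtain ⟨x, c, h⟩ := hP g
    rw [h, res_perp x c (P g) hv]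
  refine ⟨MonoidHom.mk' P fun g k => ?_, ?_⟩
  · apply Cfsg.Agent.ClassicalGeometry.SympSiegel.ext_smul
    intro y
    have hk : (k : G₁) • e F n = e F n := k.2
    have h4 : f₁ (e F n) ((k : G₁) • ext y) = 0 := by
      have h5 := form_smul (k : G₁) (e F n) (ext y)
      rw [hk, form_e_ext] at h5
      exact h5
    rw [h2, mul_smul, h2 k, ← h3 g h4, Subgroup.coe_mul, mul_smul]
  · intro x c A g hg
    apply Cfsg.Agent.ClassicalGeometry.SympSiegel.ext_smul
    intro y
    show P g • y = _
    rw [h2, hg, res_perp x c A (form_e_ext y), res_ext]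

section Two

variable [Finite F]

omit [Finite F] in
theorem zero_or_one (hF : Nat.card F = 2) (a : F) : a = 0 ∨ a = 1 := by
  classical
  have hfin : Finite F := Nat.finite_of_card_ne_zero (by rw [hF]; norm_num)
  have := Fintype.ofFinite F
  rw [Nat.card_eq_fintype_card] at hF
  by_contra hcon
  push Not at hcon
  have h1 : ({0, 1, a} : Finset F).card = 3 := by
    rw [Finset.card_eq_three]
    exact ⟨0, 1, a, zero_ne_one, hcon.1.symm, hcon.2.symm, rfl⟩
  have h2 := Finset.card_le_univ ({0, 1, a} : Finset F)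
  omega

omit [Finite F] in
/-- vectors with prescribed products -/
theorem exists_pair (hn : 2 ≤ n) {y : V₀} (hy : y ≠ 0) (c : F) : ∃ z : V₀, z ≠ 0 ∧ z ≠ y ∧ f₀ y z = c := by
  obtain ⟨t, ht⟩ := exists_form_eq_one hy
  -- a vector `s ≠ 0` orthogonal to `y` and `t`
  obtain ⟨s, hs0, hs1, hs2⟩ : ∃ s : V₀, s ≠ 0 ∧ f₀ y s = 0 ∧ f₀ t s = 0 := by
    have h1 : LinearMap.ker ((sympBilin n F y).prod (sympBilin n F t)) ≠ ⊥ := by
      apply LinearMap.ker_ne_bot_of_finrank_lt
      rw [Module.finrank_prod, Module.finrank_self, Module.finrank_fintype_fun_eq_card, Fintype.card_sum,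
        Fintype.card_fin]
      omega
    obtain ⟨s, hs, hs0⟩ := (Submodule.ne_bot_iff _).1 h1
    rw [LinearMap.mem_ker] at hs
    exact ⟨s, hs0, congrArg Prod.fst hs, congrArg Prod.snd hs⟩
  have hsy : s ≠ y := by
    rintro rfl
    rw [sympForm_swap, ht] at hs2
    exact one_ne_zero (neg_eq_zero.1 hs2)
  by_cases hc : c = 0
  · exact ⟨s, hs0, hsy, by rw [hs1, hc]⟩
  · refine ⟨c • t, ?_, ?_, by rw [sympForm_smul_right, ht, mul_one]⟩
    · intro h
      have h1 := congrArg (fun x => f₀ y x) h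
      simp only [sympForm_smul_right, ht, mul_one, sympForm_zero_right] at h1
      exact hc h1
    · intro h
      have h1 := congrArg (fun x => f₀ y x) h
      simp only [sympForm_smul_right, ht, mul_one, sympForm_self] at h1
      exact hc h1

/-- a subgroup of 2-power index projects onto `Sp_{2n}(2)` -/
theorem exists_lift {H : Subgroup G₁} {k : ℕ} [CharP F 2] (hH : H.index = 2 ^ k)
    (hgood : Good 2 G₀) (A : G₀) : ∃ (x : V₀) (c : F), sg x c * emb A ∈ H := by
  obtain ⟨π, hπ⟩ := exists_pi (F := F) (n := n)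
  have hsurj : Function.Surjective π := by
    intro A
    have h1 : (emb A : G₁) • e F n = e F n := emb_smul_e A
    exact ⟨⟨emb A, h1⟩, hπ 0 0 A _ (by rw [sg_zero, one_mul])⟩
  have hcop : H.index.Coprime (MulAction.stabilizer G₁ (e F n)).index := by
    rw [hH]
    exact Nat.Coprime.pow_left _ ((Nat.Prime.coprime_iff_not_dvd Nat.prime_two).2
      (vstab_index Nat.prime_two (by omega) e_ne))
  have h1 : (H.subgroupOf (MulAction.stabilizer G₁ (e F n))).index = 2 ^ k := (relIndex_eq hcop).trans hH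
  have h2 : ((H.subgroupOf (MulAction.stabilizer G₁ (e F n))).map π).index ∣ 2 ^ k := by
    rw [← h1]
    exact Subgroup.index_map_dvd _ hsurj
  obtain ⟨j, -, hj⟩ := (Nat.dvd_prime_pow Nat.prime_two).1 h2
  have h3 := hgood _ j hj
  have h4 : A ∈ (H.subgroupOf (MulAction.stabilizer G₁ (e F n))).map π := by rw [h3]; trivial
  obtain ⟨g, hg, hgA⟩ := h4
  obtain ⟨x, c, B, hB⟩ := exists_stab (g := (g : G₁)) g.2
  have h5 := hπ x c B g hB
  rw [hgA] at h5
  subst h5
  exact ⟨x, c, hB ▸ hg⟩

/-- `H` is transitive on the nonzero vectors -/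
theorem exists_trans {H : Subgroup G₁} {k : ℕ} [CharP F 2] (hH : H.index = 2 ^ k) {u : V₁} (hu : u ≠ 0) :
    ∃ h ∈ H, h • e F n = u := by
  have hcop : H.index.Coprime (MulAction.stabilizer G₁ (e F n)).index := by
    rw [hH]
    exact Nat.Coprime.pow_left _ ((Nat.Prime.coprime_iff_not_dvd Nat.prime_two).2
      (vstab_index Nat.prime_two (by omega) e_ne))
  obtain ⟨g, hg⟩ := exists_smul_eq (F := F) e_ne hu
  obtain ⟨h, hh, m, hm, rfl⟩ := exists_mul hcop g
  have hm' : m • e F n = e F n := hm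
  exact ⟨h, hh, by rw [← hg, mul_smul, hm']⟩

/-- a transvection in `H` -/
theorem top_of_transv {H : Subgroup G₁} {k : ℕ} (hF : Nat.card F = 2) [CharP F 2] (hH : H.index = 2 ^ k)
    (h : transv (e F n) (1 : F) ∈ H) : H = ⊤ := by
  rw [eq_top_iff, ← Cfsg.Agent.S0765.result (n + 1)]
  rw [Subgroup.closure_le]
  rintro A ⟨w, c, hA⟩
  have hA' : A = transv w c := Subtype.ext hA
  rw [hA', SetLike.mem_coe]
  rcases zero_or_one hF c with rfl | rfl
  · rw [transv_zero]; exact one_mem H
  · by_cases hw : w = 0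
    · have : transv w (1 : F) = 1 := by
        apply Cfsg.Agent.ClassicalGeometry.SympSiegel.ext_smul
        intro v
        rw [transv_smul, hw, smul_zero, add_zero, one_smul]
      rw [this]; exact one_mem H
    · obtain ⟨k, hk, hke⟩ := exists_trans hH hw
      rw [← hke, ← conj_transv]
      exact mul_mem (mul_mem hk h) (inv_mem hk)

omit [Finite F] in
theorem add_self (hF : Nat.card F = 2) (a : F) : a + a = 0 := by
  have h := zero_or_one hF (1 + 1)
  have h2 : (1 : F) + 1 = 0 := by
    rcases h with h | h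
    · exact h
    · exact absurd (add_eq_left.1 h) one_ne_zero
  linear_combination a * h2

/-- `H ∩ O_2(P_1)` is trivial -/
theorem top_of_sg (hn : 2 ≤ n) {H : Subgroup G₁} {k : ℕ} (hF : Nat.card F = 2) [CharP F 2] (hH : H.index = 2 ^ k)
    (hgood : Good 2 G₀) {x : V₀} {c : F} (hxc : sg x c ∈ H) (hne : ¬ (x = 0 ∧ c = 0)) : H = ⊤ := by
  have h2 := add_self hF
  have hneg : ∀ a : F, -a = a := fun a => neg_eq_of_add_eq_zero_left (h2 a)
  have hz : ∀ c : F, c ≠ 0 → sg (0 : V₀) c ∈ H → H = ⊤ := by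
    intro c hc h
    have hc1 := (zero_or_one hF c).resolve_left hc
    subst hc1
    apply top_of_transv hF hH
    have h3 : sg (0 : V₀) (1 : F) = transv (e F n) (1 : F) := by
      unfold sg
      rw [ext_zero, siegel_zero_eq_transv, hneg]
    rwa [h3] at h
  by_cases hx : x = 0
  · subst hx
    exact hz c (fun h => hne ⟨rfl, h⟩) hxc
  -- all `sg z c`, `z ≠ 0`
  have hall : ∀ z : V₀, z ≠ 0 → sg z c ∈ H := by
    intro z hz
    obtain ⟨A, hA⟩ := exists_smul_eq (F := F) hx hz
    obtain ⟨y, d, hyd⟩ := exists_lift hH hgood A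
    have h3 := mul_mem (mul_mem hyd hxc) (inv_mem hyd)
    have h4 : sg y d * emb A * sg x c * (sg y d * emb A)⁻¹ = sg z c := by
      have h5 : sg y d * emb A * sg x c * (sg y d * emb A)⁻¹ = sg y d * (emb A * sg x c * (emb A)⁻¹) * (sg y d)⁻¹ := by
        group
      rw [h5, conj_sg, hA, mul_inv_eq_iff_eq_mul, sg_mul, sg_mul, add_comm y z, sympForm_swap y z, hneg]
      congr 1
      ring
    rwa [h4] at h3
  obtain ⟨z, hz0, hzx, hzf⟩ := exists_pair hn hx (c + 1)
  have h3 : sg x c * sg z c ∈ H := mul_mem (hall x hx) (hall z hz0)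
  have h4 : sg (x + z) c ∈ H := by
    apply hall
    intro h
    apply hzx
    have h5 : z = -x := (neg_eq_of_add_eq_zero_right h).symm
    have h6 : -x = x := by
      funext i
      exact hneg (x i)
    rw [h5, h6]
  have h5 := mul_mem h3 h4
  rw [sg_mul, sg_mul, hzf, sympForm_self] at h5
  have h6 : x + z + (x + z) = 0 := by
    funext i
    exact h2 _
  rw [h6] at h5
  refine hz _ ?_ h5
  have h7 : c + c + (c + 1) + c + 0 = 1 := by
    have := h2 c
    linear_combination 2 * this
  rw [h7]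
  exact one_ne_zero

/-- **The step.** -/
theorem good_succ_two (hn : 2 ≤ n) (hF : Nat.card F = 2) (hgood : Good 2 G₀) : Good 2 G₁ := by
  intro H k hH
  by_contra hne
  have h2 := add_self hF
  have hneg : ∀ a : F, -a = a := fun a => neg_eq_of_add_eq_zero_left (h2 a)
  have : CharP F 2 := by
    refine CharTwo.of_one_ne_zero_of_two_eq_zero one_ne_zero ?_
    have := h2 1
    rw [← this]; norm_num
  -- `H ∩ Q_u` is trivial
  have hQe : ∀ g ∈ H, g ∈ Q (e F n) → g = 1 := by
    intro g hg hgQ
    have hge : g • e F n = e F n := smul_eq_self_of_mem_Q hgQ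
    obtain ⟨x, c, A, rfl⟩ := exists_stab hge
    have hA : A = 1 := by
      apply Cfsg.Agent.ClassicalGeometry.SympSiegel.ext_smul
      intro y
      obtain ⟨b, hb⟩ := ((mem_Q_iff e_ne).1 hgQ).2 (ext y) (form_e_ext y)
      have h3 := res_perp x c A (form_e_ext y)
      rw [hb, res_add, res_smul, res_e, smul_zero, add_zero, res_ext] at h3
      rw [← h3, one_smul]
    subst hA
    rw [map_one, mul_one] at hg ⊢
    by_contra h
    apply hne
    refine top_of_sg hn hF hH hgood hg ?_
    rintro ⟨rfl, rfl⟩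
    exact h sg_zero
  have hQ : ∀ u : V₁, u ≠ 0 → ∀ g ∈ H, g ∈ Q u → g = 1 := by
    intro u hu g hg hgQ
    obtain ⟨h, hh, rfl⟩ := exists_trans hH hu
    have h3 : g = h * (h⁻¹ * g * h) * h⁻¹ := by group
    rw [h3, smul_mem_Q_iff] at hgQ
    have h4 := hQe _ (mul_mem (mul_mem (inv_mem hh) hg) hh) hgQ
    rw [h3, h4, mul_one, mul_inv_cancel]
  -- the element inducing a transvection
  obtain ⟨y, hy⟩ : ∃ y : V₀, y ≠ 0 := ⟨Pi.single (Sum.inl ⟨0, by omega⟩) 1, by
    intro h
    have := congrFun h (Sum.inl ⟨0, by omega⟩)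
    simp at this⟩
  obtain ⟨x, c, hxc⟩ := exists_lift hH hgood (transv y 1)
  set th : G₁ := sg x c * emb (transv y 1) with hth
  -- elements of `H` fixing `e` and `y` centralise `th`
  have hcent : ∀ B : G₀, B • y = y → ∀ x' c', sg x' c' * emb B ∈ H →
      sg x' c' * emb B * th = th * (sg x' c' * emb B) := by
    intro B hB x' c' hB'
    obtain ⟨h, hh⟩ : ∃ h, h = sg x' c' * emb B := ⟨_, rfl⟩
    rw [← hh] at hB' ⊢
    have h3 : h * th * h⁻¹ * th⁻¹ = 1 := by
      have he1 : h • e F n = e F n := by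
        rw [hh, mul_smul, emb_smul_e, sg_smul_e]
      have he2 : th • e F n = e F n := by
        rw [hth, mul_smul, emb_smul_e, sg_smul_e]
      obtain ⟨π, hπ⟩ := exists_pi (F := F) (n := n)
      let h' : MulAction.stabilizer G₁ (e F n) := ⟨h, he1⟩
      let t' : MulAction.stabilizer G₁ (e F n) := ⟨th, he2⟩
      obtain ⟨x'', c'', C, hC⟩ := exists_stab (g := ((h' * t' * h'⁻¹ * t'⁻¹ : MulAction.stabilizer G₁ (e F n)) : G₁))
        (h' * t' * h'⁻¹ * t'⁻¹).2
      have hC1 : C = 1 := by
        rw [← hπ x'' c'' C _ hC, map_mul, map_mul, map_mul, map_inv, map_inv, hπ x' c' B h' hh,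
          hπ x c (transv y 1) t' hth, conj_transv, hB, mul_inv_cancel]
      rw [hC1, map_one, mul_one] at hC
      apply hQe _ (mul_mem (mul_mem (mul_mem hB' hxc) (inv_mem hB')) (inv_mem hxc))
      show ((h' * t' * h'⁻¹ * t'⁻¹ : MulAction.stabilizer G₁ (e F n)) : G₁) ∈ _
      rw [hC]
      exact siegel_mem_Q (form_e_ext x'') c''
    rwa [mul_inv_eq_one, mul_inv_eq_iff_eq_mul] at h3
  -- the action of `th`
  have hact : ∀ v : V₁, th • v = v + f₁ v (ext y) • ext y + (f₁ (ext x) v + f₁ v (ext y) * f₀ x y) • e F n +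
      f₁ (e F n) v • (ext x + c • e F n) := by
    intro v
    have h1 : (emb (transv y 1) : G₁) • v = v + f₁ v (ext y) • ext y := by
      rw [emb_smul, transv_smul, add_sub_cancel_left, one_mul, form_ext_right, Cfsg.Agent.H62.SpEmb.ext_smul]
    rw [hth, mul_smul, h1]
    unfold sg
    rw [siegel_smul (form_e_ext x)]
    simp only [sympForm_add_right, sympForm_smul_right, form_e_ext, form_ext, mul_zero, add_zero]
  have hres : ∀ v : V₁, res (th • v) = res v + f₁ v (ext y) • y + f₁ (e F n) v • x := by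
    intro v
    rw [hact]
    simp only [res_add, res_smul, res_ext, res_e, smul_zero, add_zero]
  -- `B x = x + a y`
  have hBx : ∀ B : G₀, B • y = y → ∃ a : F, B • x = x + a • y := by
    intro B hB
    obtain ⟨x', c', hB'⟩ := exists_lift hH hgood B
    have h3 := hcent B hB x' c' hB'
    obtain ⟨h, hh⟩ : ∃ h, h = sg x' c' * emb B := ⟨_, rfl⟩
    rw [← hh] at h3
    have he1 : h • e F n = e F n := by
      rw [hh, mul_smul, emb_smul_e, sg_smul_e]
    have h4 : h • (th • v₀ F n - v₀ F n) = th • (h • v₀ F n) - h • v₀ F n := by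
      rw [smul_sub', ← mul_smul, h3, mul_smul]
    have h5 : th • v₀ F n - v₀ F n = ext x + c • e F n := by
      rw [hth, mul_smul, emb_smul_v₀, sg_smul_v₀]
      abel
    rw [h5] at h4
    have h6 : f₁ (e F n) (ext x + c • e F n) = 0 := by
      rw [sympForm_add_right, form_e_ext, sympForm_smul_right, sympForm_self, mul_zero, add_zero]
    have h7 := congrArg res h4
    rw [hh, res_perp x' c' B h6, ← hh, res_add, res_ext, res_smul, res_e, smul_zero, add_zero] at h7
    have h8 : res (th • (h • v₀ F n) - h • v₀ F n) = f₁ (h • v₀ F n) (ext y) • y + f₁ (e F n) (h • v₀ F n) • x := by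
      have h9 : res (th • (h • v₀ F n)) = res (th • (h • v₀ F n) - h • v₀ F n) + res (h • v₀ F n) := by
        rw [← res_add, sub_add_cancel]
      rw [hres] at h9
      have h10 : res (th • (h • v₀ F n) - h • v₀ F n) + res (h • v₀ F n) =
          (f₁ (h • v₀ F n) (ext y) • y + f₁ (e F n) (h • v₀ F n) • x) + res (h • v₀ F n) := by
        rw [← h9]; abel
      exact add_right_cancel h10
    have h9 : f₁ (e F n) (h • v₀ F n) = 1 := by
      have := form_smul h (e F n) (v₀ F n)
      rwa [he1, form_e_v₀] at this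
    rw [h8, h9, one_smul] at h7
    exact ⟨_, by rw [h7, add_comm]⟩
  -- `x ∈ ⟨y⟩`
  obtain ⟨a, ha⟩ : ∃ a : F, x = a • y := by
    by_contra hcon
    push Not at hcon
    obtain ⟨z, hz1, hz2, hz3⟩ : ∃ z : V₀, f₀ y z = 0 ∧ f₀ x z ≠ 0 ∧ ∀ a : F, z ≠ a • y := by
      obtain ⟨z, hz1, hz2⟩ := Cfsg.Agent.LieClassical.SympSimple.exists_perp_of_not_smul hy hcon
      by_cases hz : ∀ a : F, z ≠ a • y
      · exact ⟨z, hz1, hz2, hz⟩
      push Not at hz
      obtain ⟨b, hb⟩ := hz
      obtain ⟨s, hs0, hs1, hs2⟩ : ∃ s : V₀, s ≠ 0 ∧ f₀ y s = 0 ∧ f₀ x s = 0 := by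
        have h1 : LinearMap.ker ((sympBilin n F y).prod (sympBilin n F x)) ≠ ⊥ := by
          apply LinearMap.ker_ne_bot_of_finrank_lt
          rw [Module.finrank_prod, Module.finrank_self, Module.finrank_fintype_fun_eq_card, Fintype.card_sum,
            Fintype.card_fin]
          omega
        obtain ⟨s, hs, hs0⟩ := (Submodule.ne_bot_iff _).1 h1
        rw [LinearMap.mem_ker] at hs
        exact ⟨s, hs0, congrArg Prod.fst hs, congrArg Prod.snd hs⟩
      refine ⟨z + s, by rw [sympForm_add_right, hz1, hs1, add_zero], by rwa [sympForm_add_right, hs2, add_zero], ?_⟩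
      intro a h
      have h1 : s = (a - b) • y := by
        rw [sub_smul, ← h, ← hb, add_sub_cancel_left]
      have h3 : a - b ≠ 0 := by
        intro h4
        rw [h4, zero_smul] at h1
        exact hs0 h1
      rw [hb, sympForm_smul_right] at hz2
      rw [h1, sympForm_smul_right] at hs2
      exact hz2 (by rw [(mul_eq_zero.1 hs2).resolve_left h3, mul_zero])
    obtain ⟨b, hb⟩ := hBx (transv z 1) (by rw [transv_smul, hz1, mul_zero, zero_smul, add_zero])
    rw [transv_smul, one_mul] at hb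
    have h1 := add_left_cancel hb
    apply hz3 ((f₀ x z)⁻¹ * b)
    rw [← smul_smul, ← h1, smul_smul, inv_mul_cancel₀ hz2, one_smul]
  -- `th` lies in some `Q_u`
  have hthne : th ≠ 1 := by
    intro h
    obtain ⟨-, -, h3⟩ := sg_emb_eq_one (h : sg x c * emb (transv y 1) = 1)
    obtain ⟨t, ht⟩ := exists_form_eq_one hy
    have h4 : (transv y (1 : F) : G₀) • t = t := by rw [h3, one_smul]
    rw [transv_smul, one_mul, sympForm_swap, ht] at h4
    have h5 : (-1 : F) • y = 0 := by
      have := h4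
      rwa [add_eq_left] at this
    rw [neg_one_smul, neg_eq_zero] at h5
    exact hy h5
  have hact' : ∀ v : V₁, th • v = v + (f₁ (ext y) v + a * f₁ (e F n) v) • ext y +
      (a * f₁ (ext y) v + c * f₁ (e F n) v) • e F n := by
    intro v
    rw [hact, ha, Cfsg.Agent.H62.SpEmb.ext_smul, sympForm_smul_left, sympForm_swap v (ext y), hneg,
      sympForm_smul_left, sympForm_self]
    module
  have hw : (ext y : V₁) ≠ 0 := fun h => hy (ext_injective (by rw [h, ext_zero]))
  have hwe : f₁ (ext y) (e F n) = 0 := by rw [sympForm_swap, form_e_ext, neg_zero]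
  have hthe : th • e F n = e F n := by rw [hth, mul_smul, emb_smul_e, sg_smul_e]
  have hthw : th • ext y = (ext y : V₁) := by
    rw [hact', sympForm_self, form_e_ext]
    simp
  rcases zero_or_one hF c with hc | hc
  · apply hthne
    apply hQ (ext y) hw _ hxc
    rw [mem_Q_iff hw]
    refine ⟨hthw, fun v hv => ⟨a * f₁ (e F n) v, ?_⟩⟩
    rw [hact', hv, hc]
    module
  · have hu : (ext y + e F n : V₁) ≠ 0 := by
      intro h
      have h1 := congrArg res h
      rw [res_add, res_ext, res_e, add_zero] at h1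
      exact hy (h1.trans (by funext i; rcases i with i | i <;> rfl))
    apply hthne
    apply hQ (ext y + e F n) hu _ hxc
    rw [mem_Q_iff hu]
    refine ⟨by rw [smul_add', hthw, hthe], fun v hv => ⟨(1 + a) * f₁ (ext y) v, ?_⟩⟩
    have h1 : f₁ (e F n) v = f₁ (ext y) v := by
      rw [sympForm_add_left] at hv
      rw [← hneg (f₁ (ext y) v)]
      exact eq_neg_of_add_eq_zero_right hv
    rw [hact', h1, hc]
    module

end Two

end Cfsg.Agent.H387.SpTwoStep
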